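import Mathlib

/-!
Ladder HHB2 (S3787), rung WR, part (a): a Jordan block of size `p`, linear algebra and its
translation to commutative groups of exponent `p`.
-/

set_option autoImplicit false

namespace Cfsg.Agent.Lib.Helper16.HHB

open Polynomial

section LA

variable {K M : Type*} [Field K] [AddCommGroup M] [Module K M]

theorem wr_key (N : Module.End K M) (n : ℕ) (m : M) (h0 : (N ^ n) m = 0) (c : Fin n → K)
    (i : Fin n) (hc : ∀ j : Fin n, j < i → c j = 0) :
    (N ^ (n - 1 - (i : ℕ))) (∑ j, c j • (N ^ (j : ℕ)) m) = c i • (N ^ (n - 1)) m := by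
  have hz : ∀ k, n ≤ k → (N ^ k) m = 0 := by
    intro k hk
    obtain ⟨d, rfl⟩ := Nat.exists_eq_add_of_le hk
    rw [add_comm, pow_add, Module.End.mul_apply, h0, map_zero]
  rw [map_sum, Finset.sum_eq_single i]
  · rw [map_smul, ← Module.End.mul_apply, ← pow_add]
    congr 3
    have := i.2
    omega
  · intro j _ hj
    rcases lt_or_gt_of_ne hj with h | h
    · rw [hc j h, zero_smul, map_zero]
    · rw [map_smul, ← Module.End.mul_apply, ← pow_add, hz, smul_zero]
      have h' : (i : ℕ) < (j : ℕ) := h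
      omega
  · intro h
    exact absurd (Finset.mem_univ i) h

theorem wr_coeff_zero (N : Module.End K M) (n : ℕ) (m : M) (h0 : (N ^ n) m = 0)
    (h1 : (N ^ (n - 1)) m ≠ 0) (c : Fin n → K) (r : ℕ)
    (hb : ∀ k, r ≤ k → (N ^ k) (∑ j, c j • (N ^ (j : ℕ)) m) = 0) :
    ∀ i : Fin n, (i : ℕ) + r ≤ n - 1 → c i = 0 := by
  have key : ∀ k : ℕ, ∀ i : Fin n, (i : ℕ) = k → (i : ℕ) + r ≤ n - 1 → c i = 0 := by
    intro k
    induction k using Nat.strong_induction_on with
    | _ k ih =>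
      intro i hi hir
      have h2 := wr_key N n m h0 c i (fun j hj => ih j (by rw [← hi]; exact hj) j rfl (by
        have : (j : ℕ) < (i : ℕ) := hj
        omega))
      rw [hb _ (by omega)] at h2
      rcases smul_eq_zero.1 h2.symm with h3 | h3
      · exact h3
      · exact absurd h3 h1
  intro i hi
  exact key i i rfl hi

theorem wr_li (N : Module.End K M) (n : ℕ) (m : M) (h0 : (N ^ n) m = 0)
    (h1 : (N ^ (n - 1)) m ≠ 0) : LinearIndependent K (fun i : Fin n => (N ^ (i : ℕ)) m) := by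
  rw [Fintype.linearIndependent_iff]
  intro g hg i
  apply wr_coeff_zero N n m h0 h1 g 0 _ i
  · have := i.2
    omega
  · intro k _
    rw [hg, map_zero]

theorem wr_fixed (N : Module.End K M) (n : ℕ) (hn : 0 < n) (m : M) (h0 : (N ^ n) m = 0)
    (h1 : (N ^ (n - 1)) m ≠ 0) (b : M)
    (hb : b ∈ Submodule.span K (Set.range (fun i : Fin n => (N ^ (i : ℕ)) m))) (hNb : N b = 0) :
    ∃ c : K, b = c • (N ^ (n - 1)) m := by
  obtain ⟨c, rfl⟩ := (Submodule.mem_span_range_iff_exists_fun K).1 hb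
  have hc := wr_coeff_zero N n m h0 h1 c 1 (by
    intro k hk
    obtain ⟨d, rfl⟩ := Nat.exists_eq_add_of_le hk
    rw [add_comm, pow_add, pow_one, Module.End.mul_apply, hNb, map_zero])
  refine ⟨c ⟨n - 1, by omega⟩, ?_⟩
  rw [Finset.sum_eq_single (⟨n - 1, by omega⟩ : Fin n)]
  · intro j _ hj
    rw [hc j, zero_smul]
    have h2 : (j : ℕ) ≠ n - 1 := fun h => hj (Fin.ext h)
    have := j.2
    omega
  · intro h
    exact absurd (Finset.mem_univ _) h

theorem wr_invariant (N : Module.End K M) (n : ℕ) (m : M) (h0 : (N ^ n) m = 0) (b : M)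
    (hb : b ∈ Submodule.span K (Set.range (fun i : Fin n => (N ^ (i : ℕ)) m))) :
    N b ∈ Submodule.span K (Set.range (fun i : Fin n => (N ^ (i : ℕ)) m)) := by
  induction hb using Submodule.span_induction with
  | mem x hx =>
    obtain ⟨i, rfl⟩ := hx
    show N ((N ^ (i : ℕ)) m) ∈ _
    rw [← Module.End.mul_apply, ← pow_succ']
    by_cases h : (i : ℕ) + 1 < n
    · exact Submodule.subset_span ⟨⟨(i : ℕ) + 1, h⟩, rfl⟩
    · have : (i : ℕ) + 1 = n := by
        have := i.2
        omega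
      rw [this, h0]
      exact zero_mem _
  | zero => rw [map_zero]; exact zero_mem _
  | add x y _ _ hx hy => rw [map_add]; exact add_mem hx hy
  | smul a x _ hx => rw [map_smul]; exact Submodule.smul_mem _ _ hx

end LA

section char_p

variable {p : ℕ} [Fact p.Prime] {M : Type*} [AddCommGroup M] [Module (ZMod p) M]

theorem wr_geom (T : Module.End (ZMod p) M) :
    ∑ j ∈ Finset.range p, T ^ j = (T - 1) ^ (p - 1) := by
  have hpos : 0 < p := (Fact.out : p.Prime).pos
  have hX : (X - 1 : (ZMod p)[X]) ≠ 0 := X_sub_C_ne_zero (1 : ZMod p)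
  have h : ∑ j ∈ Finset.range p, (X : (ZMod p)[X]) ^ j = (X - 1) ^ (p - 1) := by
    apply mul_left_cancel₀ hX
    rw [mul_geom_sum, ← pow_succ', Nat.sub_add_cancel hpos, sub_pow_char, one_pow]
  have h' := congrArg (aeval T) h
  simpa using h'

theorem wr_pow_p (T : Module.End (ZMod p) M) (hT : T ^ p = 1) : (T - 1) ^ p = 0 := by
  have h : ((X : (ZMod p)[X]) - 1) ^ p = X ^ p - 1 := by rw [sub_pow_char, one_pow]
  have h' := congrArg (aeval T) h
  simp only [map_pow, map_sub, aeval_X, map_one] at h'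
  rw [h', hT, sub_self]

end char_p

theorem wr_comm_aux {A : Type*} [CommGroup A] {p : ℕ} [Fact p.Prime]
    [Module (ZMod p) (Additive A)]
    (φ : A →* A) (hφ : ∀ a, φ^[p] a = a) (v : A) (hv : ∏ i ∈ Finset.range p, φ^[i] v ≠ 1) :
    ∃ B : Subgroup A, v ∈ B ∧ (∀ b ∈ B, φ b ∈ B) ∧ Nat.card B = p ^ p ∧
      (∏ i ∈ Finset.range p, φ^[i] v) ∈ B ∧ φ (∏ i ∈ Finset.range p, φ^[i] v) = ∏ i ∈ Finset.range p, φ^[i] v ∧
      (∀ b ∈ B, φ b = b → ∃ j : ℕ, b = (∏ i ∈ Finset.range p, φ^[i] v) ^ j) := by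
  have hpos : 0 < p := (Fact.out : p.Prime).pos
  let ξ : Module.End (ZMod p) (Additive A) := (MonoidHom.toAdditive φ).toZModLinearMap p
  have hξ : ∀ a : A, ξ (Additive.ofMul a) = Additive.ofMul (φ a) := fun _ => rfl
  have hpow : ∀ (i : ℕ) (a : A), (ξ ^ i) (Additive.ofMul a) = Additive.ofMul (φ^[i] a) := by
    intro i a
    induction i with
    | zero => simp
    | succ i ih => rw [pow_succ', Module.End.mul_apply, ih, hξ, Function.iterate_succ_apply']
  have hξp : ξ ^ p = 1 := by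
    apply LinearMap.ext
    intro m
    have := hpow p (Additive.toMul m)
    rw [hφ] at this
    exact this
  set N : Module.End (ZMod p) (Additive A) := ξ - 1 with hN
  set m : Additive A := Additive.ofMul v with hm
  have hNp : (N ^ p) m = 0 := by rw [hN, wr_pow_p ξ hξp]; rfl
  have hNm : (N ^ (p - 1)) m = Additive.ofMul (∏ i ∈ Finset.range p, φ^[i] v) := by
    rw [hN, ← wr_geom, LinearMap.sum_apply, ofMul_prod]
    exact Finset.sum_congr rfl (fun i _ => hpow i v)
  have hNm0 : (N ^ (p - 1)) m ≠ 0 := by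
    rw [hNm]
    intro h
    exact hv (Additive.ofMul.injective h)
  set B := Submodule.span (ZMod p) (Set.range (fun i : Fin p => (N ^ (i : ℕ)) m)) with hB
  have hξN : ∀ y, ξ y = N y + y := by
    intro y
    rw [hN, LinearMap.sub_apply, Module.End.one_apply, sub_add_cancel]
  refine ⟨AddSubgroup.toSubgroup' B.toAddSubgroup, ?_, ?_, ?_, ?_, ?_, ?_⟩
  · show m ∈ B
    exact Submodule.subset_span ⟨⟨0, hpos⟩, by simp⟩
  · intro b hb
    show ξ (Additive.ofMul b) ∈ B
    rw [hξN]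
    exact add_mem (wr_invariant N p m hNp _ hb) hb
  · have h1 : Nat.card (AddSubgroup.toSubgroup' B.toAddSubgroup) = Nat.card B :=
      Nat.card_congr (Equiv.subtypeEquiv Additive.ofMul (fun a => Iff.rfl))
    have : Module.Finite (ZMod p) B := by
      rw [hB]
      exact Module.Finite.span_of_finite (ZMod p) (Set.finite_range _)
    rw [h1, Module.natCard_eq_pow_finrank (K := ZMod p), Nat.card_zmod,
      finrank_span_eq_card (wr_li N p m hNp hNm0), Fintype.card_fin]
  · have h2 : (N ^ (p - 1)) m ∈ B := Submodule.subset_span ⟨⟨p - 1, by omega⟩, rfl⟩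
    rw [hNm] at h2
    exact h2
  · apply Additive.ofMul.injective
    rw [← hξ, ← hNm, hξN, ← Module.End.mul_apply, ← pow_succ', Nat.sub_add_cancel hpos, hNp,
      zero_add]
  · intro b hb hfix
    have h1 : N (Additive.ofMul b) = 0 := by
      rw [hN, LinearMap.sub_apply, hξ, hfix, Module.End.one_apply, sub_self]
    obtain ⟨c, hc⟩ := wr_fixed N p hpos m hNp hNm0 (Additive.ofMul b) hb h1
    refine ⟨c.val, ?_⟩
    apply Additive.ofMul.injective
    rw [hc, hNm, ofMul_pow, ← Nat.cast_smul_eq_nsmul (ZMod p), ZMod.natCast_zmod_val]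

theorem wr_comm {A : Type*} [CommGroup A] {p : ℕ} [Fact p.Prime] (hA : ∀ a : A, a ^ p = 1)
    (φ : A →* A) (hφ : ∀ a, φ^[p] a = a) (v : A) (hv : ∏ i ∈ Finset.range p, φ^[i] v ≠ 1) :
    ∃ B : Subgroup A, v ∈ B ∧ (∀ b ∈ B, φ b ∈ B) ∧ Nat.card B = p ^ p ∧
      (∏ i ∈ Finset.range p, φ^[i] v) ∈ B ∧ φ (∏ i ∈ Finset.range p, φ^[i] v) = ∏ i ∈ Finset.range p, φ^[i] v ∧
      (∀ b ∈ B, φ b = b → ∃ j : ℕ, b = (∏ i ∈ Finset.range p, φ^[i] v) ^ j) := by
  let _ : Module (ZMod p) (Additive A) := AddCommGroup.zmodModule (fun a => by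
    show Additive.ofMul ((Additive.toMul a) ^ p) = 0
    rw [hA]; rfl)
  exact wr_comm_aux φ hφ v hv

end Cfsg.Agent.Lib.Helper16.HHB
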