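import Mathlib
import Cfsg.Agent.Lib.Helper13.Schmidt2

/-!
# A nontrivial finite solvable group has a normal subgroup of prime index (rung NPI, DADE ladder)
-/

set_option autoImplicit false

namespace Cfsg.Agent.Lib.Helper16.Dade

theorem exists_normal_prime_index {G : Type*} [Group G] [Finite G] [Nontrivial G]
    (h : Group.IsSolvable G) : ∃ N : Subgroup G, N.Normal ∧ N.index.Prime :=
  Cfsg.Agent.Lib.Helper13.exists_normal_prime_index h

end Cfsg.Agent.Lib.Helper16.Dade
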