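import Mathlib
import Cfsg.Agent.Lib.Helper12.HHB.WrDefs

/-! Ladder HHB2 (S3787), rung WR, part (b): the quotient lemma. -/

set_option autoImplicit false

namespace Cfsg.Agent.Lib.Helper16.HHB

open Cfsg.Agent.Lib.Helper12.HHB

universe u

theorem wr_quot {K : Type u} [Group K] [Finite K] {p : ℕ} [Fact p.Prime] (B : Subgroup K) [B.Normal]
    (hBc : ∀ a ∈ B, ∀ b ∈ B, a * b = b * a) (hBe : ∀ b ∈ B, b ^ p = 1) (hcard : Nat.card B = p ^ p)
    (x : K) (hgen : B ⊔ Subgroup.zpowers x = ⊤) (hxc : ∀ b ∈ B, x ^ p * b = b * x ^ p)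
    (hR : Subgroup.zpowers (x ^ p) ⊓ B = ⊥) (hx : x ∉ B ⊔ Subgroup.zpowers (x ^ p))
    (n : K) (hn : n ∈ B) (hn1 : n ≠ 1) (hnx : n * x = x * n)
    (hfix : ∀ b ∈ B, b * x = x * b → ∃ j : ℕ, b = n ^ j) :
    ∃ (W : Type u) (_ : Group W) (π : K →* W), Function.Surjective π ∧ IsWr p W := by
  have hp : p.Prime := Fact.out
  have hcen : x ^ p ∈ Subgroup.center K := by
    have h1 : B ⊔ Subgroup.zpowers x ≤ Subgroup.centralizer {x ^ p} := by
      apply sup_le
      · intro b hb
        rw [Subgroup.mem_centralizer_singleton_iff]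
        exact (hxc b hb).symm
      · rw [Subgroup.zpowers_le, Subgroup.mem_centralizer_singleton_iff]
        exact (pow_mul_comm' x p).symm
    rw [hgen] at h1
    rw [Subgroup.mem_center_iff]
    intro g
    have := h1 (Subgroup.mem_top g)
    rw [Subgroup.mem_centralizer_singleton_iff] at this
    exact this
  set R := Subgroup.zpowers (x ^ p) with hRdef
  have hRc : R ≤ Subgroup.center K := by
    rw [hRdef, Subgroup.zpowers_le]; exact hcen
  have hRn : R.Normal := ⟨fun r hr g => by
    have := Subgroup.mem_center_iff.1 (hRc hr) g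
    rw [this, mul_assoc, mul_inv_cancel, mul_one]
    exact hr⟩
  let π := QuotientGroup.mk' R
  have hπs : Function.Surjective π := QuotientGroup.mk'_surjective R
  have hπ1 : ∀ k : K, π k = 1 ↔ k ∈ R := fun k => QuotientGroup.eq_one_iff k
  have hRB : ∀ k, k ∈ R → k ∈ B → k = 1 := by
    intro k h1 h2
    have : k ∈ R ⊓ B := ⟨h1, h2⟩
    rw [hR] at this
    exact this
  have hinj : Set.InjOn π (B : Set K) := by
    intro a ha b hb hab
    have h1 : π (a⁻¹ * b) = 1 := by rw [map_mul, map_inv, hab, inv_mul_cancel]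
    have h2 := hRB _ ((hπ1 _).1 h1) (mul_mem (inv_mem ha) hb)
    exact inv_mul_eq_one.1 h2
  have hxR : x ∉ R := fun h => hx (Subgroup.mem_sup_right h)
  have hBWn : (B.map π).Normal := Subgroup.Normal.map inferInstance π hπs
  have htp : (π x) ^ p = 1 := by
    rw [← map_pow, hπ1]; exact Subgroup.mem_zpowers _
  have htB : π x ∉ B.map π := by
    rintro ⟨b, hb, hbx⟩
    apply hx
    have h1 : π (b⁻¹ * x) = 1 := by rw [map_mul, map_inv, hbx, inv_mul_cancel]
    have h2 := (hπ1 _).1 h1
    have : x = b * (b⁻¹ * x) := by group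
    rw [this]
    exact mul_mem (Subgroup.mem_sup_left hb) (Subgroup.mem_sup_right h2)
  have hcBW : Nat.card (B.map π) = p ^ p := by
    rw [← hcard]
    exact Nat.card_image_of_injOn hinj
  refine ⟨K ⧸ R, inferInstance, π, hπs, B.map π, π x, hBWn, ?_, ?_, hcBW, ?_, htB, ?_, ?_⟩
  · refine ⟨⟨fun a b => Subtype.ext ?_⟩⟩
    obtain ⟨a', ha', hae⟩ := a.2
    obtain ⟨b', hb', hbe⟩ := b.2
    show (a : K ⧸ R) * b = b * a
    rw [← hae, ← hbe, ← map_mul, ← map_mul, hBc a' ha' b' hb']
  · rintro _ ⟨b, hb, rfl⟩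
    rw [← map_pow, hBe b hb, map_one]
  · apply orderOf_eq_prime htp
    intro h
    exact hxR ((hπ1 _).1 h)
  · rw [← Subgroup.card_mul_index (B.map π), hcBW, pow_succ]
    congr 1
    rw [Subgroup.index_eq_card]
    let q := QuotientGroup.mk' (B.map π)
    have hq : Function.Surjective (q.comp π) := (QuotientGroup.mk'_surjective _).comp hπs
    have h1 : (⊤ : Subgroup ((K ⧸ R) ⧸ B.map π)) = Subgroup.zpowers (q (π x)) := by
      rw [← Subgroup.map_top_of_surjective (q.comp π) hq, ← hgen, Subgroup.map_sup,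
        MonoidHom.map_zpowers]
      have : B.map (q.comp π) = ⊥ := by
        rw [eq_bot_iff]
        rintro _ ⟨b, hb, rfl⟩
        rw [Subgroup.mem_bot]
        exact (QuotientGroup.eq_one_iff _).2 ⟨b, hb, rfl⟩
      rw [this, bot_sup_eq]
      rfl
    have h2 : orderOf (q (π x)) = p := by
      apply orderOf_eq_prime
      · rw [← map_pow, htp, map_one]
      · intro h
        exact htB ((QuotientGroup.eq_one_iff _).1 h)
    rw [← h2]
    symm
    apply orderOf_eq_card_of_forall_mem_zpowers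
    intro w
    rw [← h1]
    exact Subgroup.mem_top w
  · have h1 : B.map π ⊓ Subgroup.centralizer {π x} = Subgroup.zpowers (π n) := by
      apply le_antisymm
      · rintro w ⟨⟨b, hb, rfl⟩, hw⟩
        replace hw : π b ∈ Subgroup.centralizer {π x} := hw
        rw [Subgroup.mem_centralizer_singleton_iff] at hw
        have h2 : π ((x * b)⁻¹ * (b * x)) = 1 := by
          rw [map_mul, map_inv, map_mul, map_mul, hw, inv_mul_cancel]
        have h3 : (x * b)⁻¹ * (b * x) ∈ B := by
          have e : (x * b)⁻¹ * (b * x) = b⁻¹ * (x⁻¹ * b * x⁻¹⁻¹) := by group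
          rw [e]
          exact mul_mem (inv_mem hb) (Subgroup.Normal.conj_mem inferInstance b hb x⁻¹)
        have h4 := hRB _ ((hπ1 _).1 h2) h3
        obtain ⟨j, rfl⟩ := hfix b hb (inv_mul_eq_one.1 h4).symm
        rw [map_pow]
        exact pow_mem (Subgroup.mem_zpowers _) j
      · rw [Subgroup.zpowers_le]
        refine ⟨⟨n, hn, rfl⟩, ?_⟩
        show π n ∈ Subgroup.centralizer {π x}
        rw [Subgroup.mem_centralizer_singleton_iff, ← map_mul, ← map_mul, hnx]
    rw [h1, Nat.card_zpowers]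
    apply orderOf_eq_prime
    · rw [← map_pow, hBe n hn, map_one]
    · intro h
      exact hn1 (hRB _ ((hπ1 _).1 h) hn)

end Cfsg.Agent.Lib.Helper16.HHB
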