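import Mathlib
import Cfsg.Agent.Lib.Helper12.HHB.WrDefs
import Cfsg.Agent.Lib.Helper16.HHB2WRa
import Cfsg.Agent.Lib.Helper16.HHB2WRb

/-! Ladder HHB2 (S3787), rung WR: `C_p wr C_p` as a section, from a Jordan block of size `p`. -/

set_option autoImplicit false
set_option linter.style.haveILetI false

open scoped IsMulCommutative

namespace Cfsg.Agent.Lib.Helper16.HHB

open Cfsg.Agent.Lib.Helper12.HHB

universe u

theorem wr_inf_bot {Y : Type*} [Group Y] [Finite Y] {p : ℕ} [Fact p.Prime] (B : Subgroup Y) (u : Y)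
    (hu : u ^ p = 1) (huB : u ∉ B) : Subgroup.zpowers u ⊓ B = ⊥ := by
  have hp : p.Prime := Fact.out
  have hu1 : u ≠ 1 := fun h => huB (h ▸ one_mem B)
  have ho : orderOf u = p := orderOf_eq_prime hu hu1
  have hd : Nat.card (Subgroup.zpowers u ⊓ B : Subgroup Y) ∣ p := by
    rw [← ho, ← Nat.card_zpowers]
    exact Subgroup.card_dvd_of_le inf_le_left
  rcases (Nat.dvd_prime hp).1 hd with h | h
  · exact Subgroup.card_eq_one.1 h
  · exfalso
    apply huB
    have : Subgroup.zpowers u ⊓ B = Subgroup.zpowers u := by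
      apply Subgroup.eq_of_le_of_card_ge inf_le_left
      rw [h, Nat.card_zpowers, ho]
    have h2 : u ∈ Subgroup.zpowers u ⊓ B := by rw [this]; exact Subgroup.mem_zpowers u
    exact h2.2

theorem exists_wreath_section {Y : Type u} [Group Y] [Finite Y] {p : ℕ} [Fact p.Prime] (V : Subgroup Y) [V.Normal]
    (hVc : ∀ a ∈ V, ∀ b ∈ V, a * b = b * a) (hVe : ∀ a ∈ V, a ^ p = 1) (x : Y) (hxp : x ^ p ∈ V)
    (v : Y) (hv : v ∈ V) (hN : (v * x) ^ p ≠ x ^ p) :
    ∃ (K : Subgroup Y) (W : Type u) (_ : Group W) (π : K →* W), K ≤ V ⊔ Subgroup.zpowers x ∧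
      Function.Surjective π ∧ IsWr p W := by
  have hp : p.Prime := Fact.out
  haveI : IsMulCommutative V := ⟨⟨fun a b => Subtype.ext (hVc a a.2 b b.2)⟩⟩
  let φ : V →* V := (MulAut.conjNormal x : MulAut V).toMonoidHom
  have hφ : ∀ a : V, ((φ a : V) : Y) = x * a * x⁻¹ := fun a => MulAut.conjNormal_apply x a
  have hiter : ∀ (i : ℕ) (a : V), ((φ^[i] a : V) : Y) = x ^ i * a * (x ^ i)⁻¹ := by
    intro i a
    induction i with
    | zero => simp
    | succ i ih =>
      rw [Function.iterate_succ_apply', hφ, ih, pow_succ']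
      group
  have hφp : ∀ a : V, φ^[p] a = a := by
    intro a
    apply Subtype.ext
    rw [hiter, hVc _ hxp _ a.2, mul_assoc, mul_inv_cancel, mul_one]
  have key : ∀ (a : V) (k : ℕ), ((a : Y) * x) ^ k
      = ((∏ i ∈ Finset.range k, φ^[i] a : V) : Y) * x ^ k := by
    intro a k
    induction k with
    | zero => simp
    | succ k ih =>
      rw [pow_succ, ih, Finset.prod_range_succ, Subgroup.coe_mul, hiter, pow_succ]
      group
  have hA : ∀ a : V, a ^ p = 1 := fun a => Subtype.ext (by simpa using hVe a a.2)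
  have hNm : ∏ i ∈ Finset.range p, φ^[i] (⟨v, hv⟩ : V) ≠ 1 := by
    intro h
    apply hN
    have := key ⟨v, hv⟩ p
    rw [h] at this
    simpa using this
  obtain ⟨B0, hvB, hinv, hcard, hnB, hnfix, hfix⟩ := wr_comm hA φ hφp ⟨v, hv⟩ hNm
  set n0 : V := ∏ i ∈ Finset.range p, φ^[i] (⟨v, hv⟩ : V) with hn0
  have hNmpow : ∀ e : ℕ, ∏ i ∈ Finset.range p, φ^[i] ((⟨v, hv⟩ : V) ^ e) = n0 ^ e := by
    intro e
    rw [hn0, ← Finset.prod_pow]
    exact Finset.prod_congr rfl (fun i _ => iterate_map_pow φ i _ e)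
  set B : Subgroup Y := B0.map V.subtype with hB
  have hBV : B ≤ V := by
    rintro _ ⟨b, -, rfl⟩
    exact b.2
  have hmemB : ∀ b : V, (b : Y) ∈ B ↔ b ∈ B0 := by
    intro b
    constructor
    · rintro ⟨b', hb', e⟩
      have : b' = b := Subtype.ext e
      rwa [← this]
    · intro hb
      exact ⟨b, hb, rfl⟩
  -- `x ∉ V`
  have hxV : x ∉ V := by
    intro hx
    apply hNm
    have h1 : ∀ a : V, φ a = a := by
      intro a
      apply Subtype.ext
      rw [hφ, hVc _ hx _ a.2, mul_assoc, mul_inv_cancel, mul_one]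
    have h2 : ∀ i : ℕ, φ^[i] (⟨v, hv⟩ : V) = ⟨v, hv⟩ := fun i => Function.iterate_fixed (h1 _) i
    rw [hn0, Finset.prod_congr rfl (fun i _ => h2 i), Finset.prod_const, Finset.card_range, hA]
  -- choice of `x'`
  obtain ⟨a0, hR⟩ : ∃ a0 : V, Subgroup.zpowers (((a0 : Y) * x) ^ p) ⊓ B = ⊥ := by
    by_cases hu : x ^ p ∈ B
    · have hb0 : (⟨x ^ p, hxp⟩ : V) ∈ B0 := (hmemB ⟨x ^ p, hxp⟩).1 hu
      obtain ⟨j, hj⟩ := hfix _ hb0 (by
        apply Subtype.ext
        rw [hφ]
        show x * x ^ p * x⁻¹ = x ^ p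
        rw [← pow_succ', pow_succ, mul_assoc, mul_inv_cancel, mul_one])
      refine ⟨(⟨v, hv⟩ : V) ^ ((p - 1) * j), ?_⟩
      have h1 : (((⟨v, hv⟩ : V) ^ ((p - 1) * j) : V) * x) ^ p = 1 := by
        rw [key, hNmpow]
        have h2 : x ^ p = ((n0 ^ j : V) : Y) := by rw [← hj]
        rw [h2, ← Subgroup.coe_mul, ← pow_add]
        have h3 : (p - 1) * j + j = j * p := by
          have := hp.pos
          obtain ⟨r, rfl⟩ : ∃ r, p = r + 1 := ⟨p - 1, by omega⟩
          simp only [Nat.add_sub_cancel]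
          ring
        rw [h3, pow_mul', hA]
        simp
      rw [h1, Subgroup.zpowers_one_eq_bot, bot_inf_eq]
    · refine ⟨1, ?_⟩
      rw [Subgroup.coe_one, one_mul]
      exact wr_inf_bot B _ (hVe _ hxp) hu
  set x' : Y := (a0 : Y) * x with hx'
  have hconj : ∀ b ∈ V, x' * b * x'⁻¹ = x * b * x⁻¹ := by
    intro b hb
    have h1 : x * b * x⁻¹ ∈ V := Subgroup.Normal.conj_mem inferInstance b hb x
    calc x' * b * x'⁻¹ = (a0 : Y) * (x * b * x⁻¹) * (a0 : Y)⁻¹ := by rw [hx']; group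
      _ = x * b * x⁻¹ := by rw [hVc _ a0.2 _ h1, mul_assoc, mul_inv_cancel, mul_one]
  have hx'V : x' ∉ V := by
    intro h
    apply hxV
    have : x = (a0 : Y)⁻¹ * x' := by rw [hx']; group
    rw [this]
    exact mul_mem (inv_mem a0.2) h
  have hx'p : x' ^ p ∈ V := by
    rw [hx', key]
    exact mul_mem (SetLike.coe_mem _) hxp
  have hBinv : ∀ b ∈ B, x' * b * x'⁻¹ ∈ B := by
    rintro _ ⟨b, hb, rfl⟩
    show x' * (b : Y) * x'⁻¹ ∈ B
    rw [hconj _ b.2]
    exact ⟨φ b, hinv b hb, hφ b⟩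
  set K : Subgroup Y := B ⊔ Subgroup.zpowers x' with hK
  have hBK : B ≤ K := le_sup_left
  have hx'K : x' ∈ K := Subgroup.mem_sup_right (Subgroup.mem_zpowers x')
  have hKle : K ≤ V ⊔ Subgroup.zpowers x := by
    apply sup_le (hBV.trans le_sup_left)
    rw [Subgroup.zpowers_le]
    exact mul_mem (Subgroup.mem_sup_left a0.2) (Subgroup.mem_sup_right (Subgroup.mem_zpowers x))
  have hKn : K ≤ Subgroup.normalizer (B : Set Y) := by
    apply sup_le Subgroup.le_normalizer
    rw [Subgroup.zpowers_le]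
    exact Subgroup.mem_normalizer_fintype hBinv
  haveI : (B.subgroupOf K).Normal := Subgroup.normal_subgroupOf_of_le_normalizer hKn
  have hn0Y : (n0 : Y) ∈ B := (hmemB n0).2 hnB
  obtain ⟨W, iW, π, hπ, hW⟩ := wr_quot (K := K) (p := p) (B.subgroupOf K)
    (fun a ha b hb => Subtype.ext (hVc _ (hBV ha) _ (hBV hb)))
    (fun b hb => Subtype.ext (by simpa using hVe _ (hBV hb)))
    (by
      rw [Nat.card_congr (Subgroup.subgroupOfEquivOfLe hBK).toEquiv, hB,
        Subgroup.card_map_of_injective V.subtype_injective, hcard])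
    ⟨x', hx'K⟩
    (by
      apply Subgroup.map_injective K.subtype_injective
      rw [Subgroup.map_sup, Subgroup.subgroupOf_map_subtype, MonoidHom.map_zpowers,
        inf_eq_left.2 hBK, ← MonoidHom.range_eq_map, Subgroup.range_subtype]
      rfl)
    (fun b hb => Subtype.ext (by simpa using hVc _ hx'p _ (hBV hb)))
    (by
      rw [eq_bot_iff]
      rintro k ⟨hk1, hk2⟩
      rw [Subgroup.mem_bot]
      apply Subtype.ext
      have h1 : (k : Y) ∈ Subgroup.zpowers (x' ^ p) := by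
        obtain ⟨i, hi⟩ := hk1
        refine ⟨i, ?_⟩
        have := congrArg Subtype.val hi
        simpa using this
      have h2 : (k : Y) ∈ Subgroup.zpowers (x' ^ p) ⊓ B := ⟨h1, hk2⟩
      rw [hR] at h2
      exact h2)
    (by
      intro h
      apply hx'V
      have h1 : B.subgroupOf K ⊔ Subgroup.zpowers ((⟨x', hx'K⟩ : K) ^ p) ≤ V.subgroupOf K := by
        apply sup_le
        · intro k hk
          exact hBV hk
        · rw [Subgroup.zpowers_le]
          show ((⟨x', hx'K⟩ : K) ^ p : K).1 ∈ V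
          simpa using hx'p
      exact h1 h)
    ⟨n0, hBK hn0Y⟩ hn0Y
    (by
      intro h
      apply hNm
      apply Subtype.ext
      exact congrArg (fun k : K => (k : Y)) h)
    (by
      apply Subtype.ext
      show (n0 : Y) * x' = x' * n0
      have h1 := hconj _ n0.2
      rw [← hφ, hnfix] at h1
      calc (n0 : Y) * x' = x' * n0 * x'⁻¹ * x' := by rw [h1]
        _ = x' * n0 := by group)
    (by
      rintro ⟨_, hbK⟩ ⟨b, hb, rfl⟩ hcomm
      have h1 : (b : Y) * x' = x' * b := congrArg Subtype.val hcomm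
      have h2 : φ b = b := by
        apply Subtype.ext
        rw [hφ, ← hconj _ b.2, ← h1]
        group
      obtain ⟨j, hj⟩ := hfix b hb h2
      refine ⟨j, Subtype.ext ?_⟩
      show (b : Y) = _
      rw [hj]
      simp)
  exact ⟨K, W, iW, π, hKle, hπ, hW⟩

end Cfsg.Agent.Lib.Helper16.HHB
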