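import Mathlib
import Cfsg.Agent.Lib.Helper81.Kno.Defs

set_option autoImplicit false
open scoped ComplexConjugate

namespace Cfsg.Agent.Lib.Helper81.Kno

universe u

theorem gauss_sum_units {F : Type u} [Field F] [Fintype F] [DecidableEq F] (χ : MulChar F ℂ) (ψ : AddChar F ℂ) :
    gaussSum χ ψ = ∑ x : Fˣ, ψ (x : F) * χ (x : F) := by
  rw [gaussSum]
  symm
  apply Fintype.sum_of_injective (fun x : Fˣ => (x : F)) Units.val_injective
  · intro i hi
    have : ¬ IsUnit i := fun ⟨u, hu⟩ => hi ⟨u, hu⟩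
    rw [MulChar.map_nonunit χ this, zero_mul]
  · intro x; exact mul_comm _ _

theorem gauss_norm_one {F : Type u} [Field F] [Fintype F] (ψ : AddChar F ℂ) (hψ : ψ ≠ 1) :
    ‖gaussSum (1 : MulChar F ℂ) ψ‖ ^ 2 = 1 := by
  rw [gaussSum_one_left hψ]; simp

theorem gauss_norm_ne {F : Type u} [Field F] [Fintype F] (χ : MulChar F ℂ) (hχ : χ ≠ 1)
    (ψ : AddChar F ℂ) (hψ : ψ ≠ 1) :
    ‖gaussSum χ ψ‖ ^ 2 = (Fintype.card F : ℝ) := by
  have h1 := gaussSum_mul_gaussSum_eq_card hχ (AddChar.IsPrimitive.of_ne_one hψ)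
  rw [← star_gaussSum_eq] at h1
  have h2 : gaussSum χ ψ * conj (gaussSum χ ψ) = (Fintype.card F : ℂ) := h1
  rw [Complex.mul_conj'] at h2
  exact_mod_cast h2

/-- the trace to the prime field as an additive map -/
noncomputable def gaussTr (p : ℕ) [Fact p.Prime] (F : Type u) [Field F] [CharP F p] : F →+ ZMod p :=
  letI := ZMod.algebra F p
  (Algebra.trace (ZMod p) F).toAddMonoidHom

/-- the additive character `x ↦ ζ ^ (t * (tr x).val)` -/
noncomputable def gaussPsi (p : ℕ) [Fact p.Prime] (ζ : ℂ) (hζ : ζ ^ p = 1) (F : Type u) [Field F]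
    [CharP F p] (t : ℕ) : AddChar F ℂ :=
  (AddChar.zmodChar p (ζ := ζ ^ t) (by rw [← pow_mul, mul_comm, pow_mul, hζ, one_pow])).compAddMonoidHom
    (gaussTr p F)

theorem gaussPsi_apply (p : ℕ) [Fact p.Prime] (ζ : ℂ) (hζ : ζ ^ p = 1) (F : Type u) [Field F]
    [CharP F p] (t : ℕ) (x : F) :
    gaussPsi p ζ hζ F t x = ζ ^ (t * (gaussTr p F x).val) := by
  rw [gaussPsi, AddChar.compAddMonoidHom_apply, AddChar.zmodChar_apply, ← pow_mul]

theorem gauss_trace_ne (p : ℕ) [Fact p.Prime] (F : Type u) [Field F] [Finite F] [CharP F p] :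
    ∃ b : F, gaussTr p F b ≠ 0 := by
  obtain rfl : p = ringChar F := (ringChar.eq F p).symm
  letI := ZMod.algebra F (ringChar F)
  obtain ⟨b, hb⟩ := FiniteField.trace_to_zmod_nondegenerate F (one_ne_zero)
  rw [one_mul] at hb
  exact ⟨b, hb⟩

theorem gaussPsi_ne_one (p : ℕ) [Fact p.Prime] (ζ : ℂ) (hζ : IsPrimitiveRoot ζ p) (F : Type u)
    [Field F] [Finite F] [CharP F p] (t : ℕ) (ht : ¬ p ∣ t) :
    gaussPsi p ζ hζ.pow_eq_one F t ≠ 1 := by
  intro hcon
  obtain ⟨b, hb⟩ := gauss_trace_ne p F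
  have h1 : gaussPsi p ζ hζ.pow_eq_one F t b = 1 := by rw [hcon]; rfl
  rw [gaussPsi_apply] at h1
  have h2 := (hζ.pow_eq_one_iff_dvd _).mp h1
  rcases (Nat.Prime.dvd_mul (Fact.out : p.Prime)).mp h2 with h3 | h3
  · exact ht h3
  · have h4 : (gaussTr p F b).val < p := ZMod.val_lt _
    have h5 := Nat.eq_zero_of_dvd_of_lt h3 h4
    exact hb ((ZMod.val_eq_zero _).mp h5)

open Classical in
theorem good_field (p : ℕ) [Fact p.Prime] (ζ : ℂ) (hζ : IsPrimitiveRoot ζ p) {H : Type u} [Group H]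
    {F : Type u} [Field F] [Finite F] [CharP F p] (ι : H →* Fˣ) :
    Good p ζ (fun h => if ι h = 1 then 1 else Nat.card F) (fun h => ι h = 1) := by
  let _ : Fintype F := Fintype.ofFinite F
  have hne : NeZero (Monoid.exponent Fˣ) := ⟨Monoid.exponent_ne_zero_of_finite⟩
  obtain ⟨e⟩ := CommGroup.monoidHom_mulEquiv_of_hasEnoughRootsOfUnity Fˣ ℂ
  let φ : Fˣ → (H →* ℂˣ) := fun x => (MonoidHom.eval x).comp (e.symm.toMonoidHom.comp ι)
  have hφ : ∀ x h, φ x h = (e.symm (ι h)) x := fun x h => rfl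
  let a : Fˣ → ZMod p := fun x => gaussTr p F (x : F)
  have hχ1 : ∀ h, e.symm (ι h) = 1 ↔ ι h = 1 := by
    intro h
    rw [MulEquiv.map_eq_one_iff]
  refine ⟨Fˣ, inferInstance, a, φ, Fintype.card Fˣ, ?_, ?_, ?_, ?_⟩
  · intro hdvd
    obtain ⟨n, hp, hq⟩ := FiniteField.card F p
    rw [Fintype.card_units, hq] at hdvd
    have h1 : p ∣ p ^ (n : ℕ) := dvd_pow_self p n.pos.ne'
    have h2 : 1 ≤ p ^ (n : ℕ) := Nat.one_le_pow _ _ hp.pos
    have h3 : p ∣ 1 := by
      have := (Nat.dvd_sub h1 hdvd)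
      rwa [Nat.sub_sub_self h2] at this
    exact hp.one_lt.ne' (Nat.dvd_one.mp h3)
  · intro h hh
    simp only [etaT, zero_mul, pow_zero, one_mul, hφ, hh, map_one, MonoidHom.one_apply,
      Units.val_one, Finset.sum_const, Finset.card_univ, nsmul_eq_mul, mul_one]
  · intro h hh
    simp only [etaT, zero_mul, pow_zero, one_mul, hφ]
    have hne1 : (Units.coeHom ℂ).comp (e.symm (ι h)) ≠ 1 := by
      intro hcon
      apply hh
      rw [← hχ1]
      ext x
      have := DFunLike.congr_fun hcon x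
      simpa using this
    exact sum_hom_units_eq_zero _ hne1
  · intro t ht h
    have hψ := gaussPsi_ne_one p ζ hζ F t ht
    have key : etaT ζ a φ t h =
        gaussSum (MulChar.ofUnitHom (e.symm (ι h))) (gaussPsi p ζ hζ.pow_eq_one F t) := by
      rw [gauss_sum_units, etaT]
      apply Finset.sum_congr rfl
      intro x _
      rw [gaussPsi_apply, MulChar.ofUnitHom_coe, hφ]
    rw [key]
    by_cases hh : ι h = 1
    · have : MulChar.ofUnitHom (e.symm (ι h)) = (1 : MulChar F ℂ) := by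
        rw [hh, map_one]
        ext x
        simp [MulChar.ofUnitHom_coe]
      rw [this, gauss_norm_one _ hψ]
      simp [hh]
    · have : MulChar.ofUnitHom (e.symm (ι h)) ≠ (1 : MulChar F ℂ) := by
        intro hcon
        apply hh
        rw [← hχ1]
        ext x
        have := DFunLike.congr_fun hcon (x : F)
        rw [MulChar.ofUnitHom_coe, MulChar.one_apply_coe] at this
        simpa using this
      rw [gauss_norm_ne _ this _ hψ]
      simp [hh, Nat.card_eq_fintype_card]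

end Cfsg.Agent.Lib.Helper81.Kno
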